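import Cfsg.Agent.Lib.KnownSimple.MultM.U43L.Rel
import Cfsg.Agent.Lib.KnownSimple.MultM.U43L.LowD
import Cfsg.Agent.Lib.KnownSimple.MultC.LowR
import Cfsg.Agent.Lib.KnownSimple.MultC.UppW

/-!
# The lower bound
-/

set_option autoImplicit false

namespace Cfsg.Agent.Lib.KnownSimple.MultM.U43L

open Cfsg Cfsg.Spor Cfsg.Agent.Lib.Compute Cfsg.Agent.Lib.KnownSimple.PE Cfsg.Agent.Lib.KnownSimple.Leech
open Cfsg.Agent.Lib.KnownSimple Cfsg.Agent.Lib.KnownSimple.AutRigid Cfsg.Agent.Lib.KnownSimple.Pres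
open Cfsg.Agent.Lib.KnownSimple.MultC


/-- A cocycle. -/
noncomputable abbrev κ0 : ℕ → ℕ → ℕ := tauP d kb0
set_option maxHeartbeats 0 in
set_option maxRecDepth 100000 in
theorem hκ0 : chkK κ0 τ d n 4 = true := by decide +kernel
set_option maxHeartbeats 0 in
set_option maxRecDepth 100000 in
theorem hrelK0 : chkRels κ0 τ n 4 R0 = true := by decide +kernel
set_option maxHeartbeats 0 in
set_option maxRecDepth 100000 in
theorem hrhoK0 : chkRho κ0 τ d n 4 A B = true := by decide +kernel
/-- A cocycle. -/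
noncomputable abbrev κ1 : ℕ → ℕ → ℕ := tauP d kb1
set_option maxHeartbeats 0 in
set_option maxRecDepth 100000 in
theorem hκ1 : chkK κ1 τ d n 3 = true := by decide +kernel
set_option maxHeartbeats 0 in
set_option maxRecDepth 100000 in
theorem hrelK1 : chkRels κ1 τ n 3 R0 = true := by decide +kernel
set_option maxHeartbeats 0 in
set_option maxRecDepth 100000 in
theorem hrhoK1 : chkRho κ1 τ d n 3 A B = true := by decide +kernel
/-- A cocycle. -/
noncomputable abbrev κ2 : ℕ → ℕ → ℕ := tauP d kb2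
set_option maxHeartbeats 0 in
set_option maxRecDepth 100000 in
theorem hκ2 : chkK κ2 τ d n 3 = true := by decide +kernel
set_option maxHeartbeats 0 in
set_option maxRecDepth 100000 in
theorem hrelK2 : chkRels κ2 τ n 3 R0 = true := by decide +kernel
set_option maxHeartbeats 0 in
set_option maxRecDepth 100000 in
theorem hrhoK2 : chkRho κ2 τ d n 3 A B = true := by decide +kernel
theorem hr0 : lg [] R0 24 ∈ stdRels S := hrr.1 _ (by decide +kernel)
set_option maxHeartbeats 0 in
set_option maxRecDepth 100000 in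
theorem hz0_0 : chkConst κ0 τ n 4 (lg [] R0 24) 1 = true := by decide +kernel
set_option maxHeartbeats 0 in
set_option maxRecDepth 100000 in
theorem hz0_1 : chkConst κ1 τ n 3 (lg [] R0 24) 0 = true := by decide +kernel
set_option maxHeartbeats 0 in
set_option maxRecDepth 100000 in
theorem hz0_2 : chkConst κ2 τ n 3 (lg [] R0 24) 0 = true := by decide +kernel
theorem hr1 : lg [] R0 23 ∈ stdRels S := hrr.1 _ (by decide +kernel)
set_option maxHeartbeats 0 in
set_option maxRecDepth 100000 in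
theorem hz1_0 : chkConst κ0 τ n 4 (lg [] R0 23) 0 = true := by decide +kernel
set_option maxHeartbeats 0 in
set_option maxRecDepth 100000 in
theorem hz1_1 : chkConst κ1 τ n 3 (lg [] R0 23) 1 = true := by decide +kernel
set_option maxHeartbeats 0 in
set_option maxRecDepth 100000 in
theorem hz1_2 : chkConst κ2 τ n 3 (lg [] R0 23) 0 = true := by decide +kernel
theorem hr2 : lg [] R0 21 ∈ stdRels S := hrr.1 _ (by decide +kernel)
set_option maxHeartbeats 0 in
set_option maxRecDepth 100000 in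
theorem hz2_0 : chkConst κ0 τ n 4 (lg [] R0 21) 0 = true := by decide +kernel
set_option maxHeartbeats 0 in
set_option maxRecDepth 100000 in
theorem hz2_1 : chkConst κ1 τ n 3 (lg [] R0 21) 0 = true := by decide +kernel
set_option maxHeartbeats 0 in
set_option maxRecDepth 100000 in
theorem hz2_2 : chkConst κ2 τ n 3 (lg [] R0 21) 1 = true := by decide +kernel
set_option maxHeartbeats 0 in
set_option maxRecDepth 100000 in
theorem hAB : ∀ x, x < d → (∀ l ∈ A x, l < 2 * d) ∧ (∀ l ∈ B x, l < 2 * d) := by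
  have h : allBelow (fun x => ((A x).all fun l => Nat.blt l (2 * d)) && ((B x).all fun l => Nat.blt l (2 * d))) d = true := by
    decide +kernel
  intro x hx
  have h1 := (allBelow_iff _ _).1 h x hx
  rw [Bool.and_eq_true] at h1
  exact ⟨fun l hl => by simpa [Nat.blt_eq] using List.all_eq_true.1 h1.1 l hl,
    fun l hl => by simpa [Nat.blt_eq] using List.all_eq_true.1 h1.2 l hl⟩
theorem lowerP : ∃ (Γ : Type) (_ : Group Γ) (_ : Finite Γ) (σ : Γ →* P),
    IsStemExtension σ ∧ Nonempty (σ.ker ≃* Multiplicative (ZMod 4 × ZMod 3 × ZMod 3)) :=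
  lower3 hP C h0 κ0 κ1 κ2 A B hcomm hok hAB hκ0 hκ1 hκ2 (of_chkRels_rot C hrelK0 (fun r hr => hok r (hrr.1 r hr)) hrr.2) (of_chkRels_rot C hrelK1 (fun r hr => hok r (hrr.1 r hr)) hrr.2) (of_chkRels_rot C hrelK2 (fun r hr => hok r (hrr.1 r hr)) hrr.2) hrhoK0 hrhoK1 hrhoK2 hr0 hr1 hr2 hz0_0 hz0_1 hz0_2 hz1_0 hz1_1 hz1_2 hz2_0 hz2_1 hz2_2

end Cfsg.Agent.Lib.KnownSimple.MultM.U43L
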