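import Cfsg.Agent.Lib.KnownSimple.MultM.U33H.Main
import Cfsg.Agent.Lib.KnownSimple.MultM.U43L.CertAll
import Cfsg.Agent.Lib.KnownSimple.MultM.U43L.Low
import Cfsg.Agent.Lib.KnownSimple.MultC.CongrU
import Cfsg.Agent.Lib.KnownSimple.MultC.UppW

/-!
# The Schur multiplier
-/

set_option autoImplicit false

namespace Cfsg.Agent.Lib.KnownSimple.MultM.U43L

open Cfsg Cfsg.Spor Cfsg.Agent.Lib.Compute Cfsg.Agent.Lib.KnownSimple.PE Cfsg.Agent.Lib.KnownSimple.Leech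
open Cfsg.Agent.Lib.KnownSimple Cfsg.Agent.Lib.KnownSimple.AutRigid Cfsg.Agent.Lib.KnownSimple.Pres
open Cfsg.Agent.Lib.KnownSimple.MultC


theorem hMF : MF (stabOf ρ h0) :=
  MF_stab_of_letters (k := 4) C hρ (by decide) htr (by decide +kernel) (by rw [cardLS, card_P]; rfl)
    (MF_LS hPU hfU finj Cfsg.Agent.Lib.KnownSimple.MultM.U33H.mfP)

theorem upperP (Γ : Type) [Group Γ] [Finite Γ] (σ : Γ →* P) (hσ : IsStemExtension σ) :
    ∃ π : Multiplicative (ZMod 4 × ZMod 3 × ZMod 3) →* σ.ker, Function.Surjective π := by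
  obtain ⟨u, h1, h2, h3⟩ := upperW C hP A B hcomm hρ hMF hrr.1 hrr.2 hRLe hokR hloopR (Q := 30) (P := 3) (Qr := 25) (by decide +kernel) (by decide +kernel)
    hTree hE hF ssL (by decide) hcert Γ σ hσ
  refine exists_pi3 hσ.2.1 (h1 24 (by decide)) (h1 23 (by decide)) (h1 21 (by decide)) (h2 24 (by decide) 4 ⟨_, hordW0⟩) (h2 23 (by decide) 3 ⟨_, hordW1⟩) (h2 21 (by decide) 3 ⟨_, hordW2⟩) (h3.trans (Subgroup.closure_mono ?_))
  rintro _ ⟨s, hs, rfl⟩
  simp only [ssL, Set.mem_setOf_eq, List.mem_cons, List.not_mem_nil, or_false] at hs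
  rcases hs with rfl | rfl | rfl <;> simp

theorem multP : HasSchurMultiplier P (Multiplicative (ZMod 4 × ZMod 3 × ZMod 3)) := ⟨lowerP, upperP⟩

theorem mult {F : Type*} [Field F] [Fintype F] (hF : Fintype.card F = 9) :
    Cfsg.HasSchurMultiplier (Cfsg.PSU 4 F 3) (Multiplicative (ZMod 4 × ZMod 3 × ZMod 3)) :=
  hasSchur_congrU (Cfsg.Agent.Lib.KnownSimple.MultC.U43P.psuEquiv hF) (hasSchur_congr e multP)

end Cfsg.Agent.Lib.KnownSimple.MultM.U43L
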